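import Cfsg.Agent.SB.D4.RA2
import Cfsg.Agent.SB.D4.RB2

/-!
# S5765, `PΩ₈⁺(q)`, case `r = 2` (helper30)
-/

set_option autoImplicit false

namespace Cfsg.Agent.SB.D4

theorem case_two {F : Type} [Field F] [Fintype F] (G : Geo) {S : Subgroup (MulAut (G8 F))} {X : Subgroup (G8 F)}
    (h : Cx S X 2) : Kill3 (LL S) := by
  by_cases hx : ∃ a : E8 F, (a : G8 F) ∈ X ∧ a * a ≠ 1
  · exact case_two_II G h hx
  · exact case_two_I G h fun a ha => by_contra fun h1 => hx ⟨a, ha, h1⟩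

end Cfsg.Agent.SB.D4
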